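import Cfsg.Agent.Jordan.UnipotentElusive

/-!
# Fixed-point criterion for unipotent elements of order `p`, necessity
-/

set_option autoImplicit false

namespace CfsgLib.Jordan.UnipotentElusive

open Cfsg.Geo CfsgLib.OrthGeo Module

/-- A multiset with all parts equal to one contains every smaller such multiset. -/
theorem of_all_ones {μ : Multiset ℕ} {m : ℕ} (hpos : ∀ e ∈ μ, 0 < e) (h1 : ¬ ∃ e ∈ μ, 1 < e) (hm : m ≤ μ.sum) :
    ∃ ν : Multiset ℕ, ν ≤ μ ∧ ν.sum = m ∧ ∀ e : ℕ, Even e → Even (ν.count e) := by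
  push Not at h1
  have hμ : μ = Multiset.replicate (Multiset.card μ) 1 :=
    Multiset.eq_replicate_card.2 fun e he => le_antisymm (h1 e he) (hpos e he)
  rw [hμ, Multiset.sum_replicate, smul_eq_mul, mul_one] at hm
  refine ⟨Multiset.replicate m 1, ?_, by simp, fun e he => ?_⟩
  · rw [hμ]
    exact Multiset.replicate_le_replicate 1 |>.2 hm
  · rw [Multiset.count_replicate, if_neg (by rintro rfl; exact Nat.not_even_one he)]
    exact ⟨0, rfl⟩

/-- Two odd parts added to even parts keep the parity of the multiplicities. -/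
theorem even_count_cons_cons {a b : ℕ} {R : Multiset ℕ} (ha : Odd a) (hb : Odd b) {e : ℕ} (he : Even e) :
    (a ::ₘ b ::ₘ R).count e = R.count e := by
  rw [Multiset.count_cons_of_ne (fun h : e = a => Nat.not_even_iff_odd.2 ha (h ▸ he)),
    Multiset.count_cons_of_ne (fun h : e = b => Nat.not_even_iff_odd.2 hb (h ▸ he))]

/-- The even parts pair `e, e` replaced by `e + 1, e - 1`. -/
theorem exists_perturbed {μ : Multiset ℕ} {p : ℕ} (hp : Odd p) (hle : ∀ e ∈ μ, 0 < e ∧ e ≤ p)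
    (hev : ∀ e, Even e → Even (μ.count e)) (heven : ∀ e ∈ μ, Even e) (hne : μ ≠ 0) :
    ∃ (a b e : ℕ) (R : Multiset ℕ), μ = e ::ₘ e ::ₘ R ∧ Even e ∧ Odd a ∧ Odd b ∧ a + b = e + e ∧ 1 < a ∧
      (∀ x ∈ a ::ₘ b ::ₘ R, 0 < x ∧ x ≤ p) := by
  obtain ⟨e, he⟩ := Multiset.exists_mem_of_ne_zero hne
  obtain ⟨S, rfl⟩ := Multiset.exists_cons_of_mem he
  have hee := heven e he
  have hc := hev e hee
  rw [Multiset.count_cons_self] at hc
  obtain ⟨R, rfl⟩ := Multiset.exists_cons_of_mem (Multiset.count_pos.1 (by obtain ⟨c, hc⟩ := hc; omega) : e ∈ S)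
  obtain ⟨he0, hep⟩ := hle e he
  obtain ⟨k, hk⟩ := hee
  obtain ⟨l, hl⟩ := hp
  refine ⟨e + 1, e - 1, e, R, rfl, ⟨k, hk⟩, ⟨k, by omega⟩, ⟨k - 1, by omega⟩, by omega, by omega, fun x hx => ?_⟩
  rcases Multiset.mem_cons.1 hx with rfl | hx
  · omega
  rcases Multiset.mem_cons.1 hx with rfl | hx
  · omega
  exact hle x (Multiset.mem_cons_of_mem (Multiset.mem_cons_of_mem hx))

end CfsgLib.Jordan.UnipotentElusive
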