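import Cfsg.Agent.Jordan.Nilpotent
import Mathlib.Combinatorics.Enumerative.Partition.Basic
import Mathlib.Algebra.CharP.Basic
import Mathlib.Algebra.CharP.Lemmas
import Mathlib.LinearAlgebra.Matrix.CharP
import Mathlib.LinearAlgebra.Matrix.ToLin
import Mathlib.LinearAlgebra.Matrix.GeneralLinearGroup.Defs
import Mathlib.GroupTheory.OrderOfElement

/-!
# Unipotent classes of `GLₙ` and partitions
-/

set_option autoImplicit false

open Module

namespace CfsgLib.Jordan

variable {F : Type*} [Field F] {n : ℕ}

local notation "GLn" => Matrix.GeneralLinearGroup (Fin n) F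
local notation "En" => Module.End F (Fin n → F)

/-- The nilpotent part `g - 1`, as an endomorphism. -/
noncomputable def nilPart (g : GLn) : En :=
  Matrix.toLinAlgEquiv' ((g : Matrix (Fin n) (Fin n) F) - 1)

lemma ranks_eq_of_isConj {g h : GLn} (hc : IsConj g h) (j : ℕ) :
    finrank F (LinearMap.range (nilPart g ^ j)) = finrank F (LinearMap.range (nilPart h ^ j)) := by
  obtain ⟨P, rfl⟩ := isConj_iff.1 hc
  let u : (En)ˣ := Units.map Matrix.toLinAlgEquiv'.toAlgHom.toRingHom.toMonoidHom P
  have hN : nilPart (P * g * P⁻¹) = (u : En) * nilPart g * ((u⁻¹ : (En)ˣ) : En) := by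
    show Matrix.toLinAlgEquiv' _ = Matrix.toLinAlgEquiv' (P : Matrix (Fin n) (Fin n) F) *
      Matrix.toLinAlgEquiv' _ * Matrix.toLinAlgEquiv' ((P⁻¹ : GLn) : Matrix (Fin n) (Fin n) F)
    rw [← map_mul, ← map_mul]
    congr 1
    rw [mul_sub, sub_mul, mul_one, Units.mul_inv]
    rfl
  have hpow : nilPart (P * g * P⁻¹) ^ j = (u : En) * nilPart g ^ j * ((u⁻¹ : (En)ˣ) : En) := by
    rw [hN, Units.conj_pow]
  let f : (Fin n → F) ≃ₗ[F] (Fin n → F) := LinearMap.GeneralLinearGroup.toLinearEquiv u
  have e : LinearMap.range (nilPart (P * g * P⁻¹) ^ j) =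
      (LinearMap.range (nilPart g ^ j)).map f.toLinearMap := by
    rw [hpow, mul_assoc]
    show LinearMap.range (f.toLinearMap.comp ((nilPart g ^ j).comp f.symm.toLinearMap)) = _
    rw [LinearMap.range_comp, LinearMap.range_comp_of_range_eq_top _ f.symm.range]
  rw [e, LinearEquiv.finrank_map_eq]

lemma isConj_of_ranks_eq {g h : GLn} (hg : IsNilpotent (nilPart g)) (hh : IsNilpotent (nilPart h))
    (hr : ∀ j, finrank F (LinearMap.range (nilPart g ^ j)) = finrank F (LinearMap.range (nilPart h ^ j))) :
    IsConj g h := by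
  obtain ⟨f, hf⟩ := exists_similar hg hh hr
  let M : Matrix (Fin n) (Fin n) F := LinearMap.toMatrixAlgEquiv' (f : En)
  let M' : Matrix (Fin n) (Fin n) F := LinearMap.toMatrixAlgEquiv' (f.symm : En)
  have h1 : M * M' = 1 := by
    rw [← map_mul, ← map_one LinearMap.toMatrixAlgEquiv']
    congr 1
    exact LinearMap.ext fun x => f.apply_symm_apply x
  have h2 : M' * M = 1 := by
    rw [← map_mul, ← map_one LinearMap.toMatrixAlgEquiv']
    congr 1
    exact LinearMap.ext fun x => f.symm_apply_apply x
  refine isConj_iff.2 ⟨⟨M, M', h1, h2⟩, ?_⟩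
  rw [mul_inv_eq_iff_eq_mul]
  have e : (f : En) * nilPart g = nilPart h * (f : En) := LinearMap.ext hf
  have e' := congrArg LinearMap.toMatrixAlgEquiv' e
  rw [map_mul, map_mul, nilPart, nilPart, LinearMap.toMatrixAlgEquiv'_toLinAlgEquiv',
    LinearMap.toMatrixAlgEquiv'_toLinAlgEquiv', mul_sub, sub_mul, mul_one, one_mul,
    sub_left_inj] at e'
  exact Units.ext e'

lemma isNilpotent_nilPart_iff {p : ℕ} [Fact p.Prime] [CharP F p] (g : GLn) :
    IsNilpotent (nilPart g) ↔ ∃ k : ℕ, orderOf g = p ^ k := by
  rcases isEmpty_or_nonempty (Fin n) with hn | hn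
  · refine iff_of_true ⟨1, LinearMap.ext fun x => funext fun i => hn.elim i⟩ ⟨0, ?_⟩
    rw [pow_zero, orderOf_eq_one_iff]
    exact Subsingleton.elim _ _
  have key : ∀ k : ℕ, ((g : Matrix (Fin n) (Fin n) F) - 1) ^ p ^ k =
      ((g ^ p ^ k : GLn) : Matrix (Fin n) (Fin n) F) - 1 := by
    intro k
    rw [sub_pow_char_pow_of_commute (p := p) k (Commute.one_right _), one_pow, Units.val_pow_eq_pow_val]
  constructor
  · rintro ⟨m, hm⟩
    have hm' : ((g : Matrix (Fin n) (Fin n) F) - 1) ^ m = 0 := by
      rw [nilPart, ← map_pow] at hm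
      exact Matrix.toLinAlgEquiv'.map_eq_zero_iff.1 hm
    have hgp : g ^ p ^ m = 1 := by
      apply Units.ext
      have h := key m
      rw [pow_eq_zero_of_le (Nat.lt_pow_self (Fact.out : p.Prime).one_lt).le hm'] at h
      exact sub_eq_zero.1 h.symm
    obtain ⟨i, -, hi⟩ := (Nat.dvd_prime_pow Fact.out).1 (orderOf_dvd_of_pow_eq_one hgp)
    exact ⟨i, hi⟩
  · rintro ⟨k, hk⟩
    refine ⟨p ^ k, ?_⟩
    rw [nilPart, ← map_pow, key, ← hk, pow_orderOf_eq_one, Units.val_one, sub_self, map_zero]

/-- The block sizes of a partition. -/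
noncomputable def partSize (π : Nat.Partition n) : Fin π.parts.toList.length → ℕ :=
  fun k => π.parts.toList.get k

lemma map_partSize (π : Nat.Partition n) : Finset.univ.val.map (partSize π) = π.parts := by
  conv_rhs => rw [← Multiset.coe_toList π.parts, ← List.ofFn_get π.parts.toList]
  exact Fin.univ_val_map _

/-- The standard chain basis attached to a partition. -/
noncomputable def partBasis (π : Nat.Partition n) :
    Basis ((k : Fin π.parts.toList.length) × Fin (partSize π k)) F (Fin n → F) :=
  (Pi.basisFun F (Fin n)).reindex (Fintype.equivOfCardEq (by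
    rw [Fintype.card_sigma, Fintype.card_fin]
    simp only [Fintype.card_fin]
    rw [Finset.sum_eq_multiset_sum, map_partSize, π.parts_sum]))

/-- The unipotent element attached to a partition. -/
noncomputable def partElt (π : Nat.Partition n) : GLn :=
  ((isNilpotent_chainEnd (partSize π) (partBasis (F := F) π)).map
    LinearMap.toMatrixAlgEquiv').isUnit_one_add.unit

lemma nilPart_partElt (π : Nat.Partition n) :
    nilPart (partElt (F := F) π) = chainEnd (partSize π) (partBasis π) := by
  rw [nilPart, partElt, IsUnit.unit_spec, add_sub_cancel_left,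
    Matrix.toLinAlgEquiv'_toMatrixAlgEquiv']

lemma partElt_isNilpotent (π : Nat.Partition n) : IsNilpotent (nilPart (partElt (F := F) π)) := by
  rw [nilPart_partElt]; exact isNilpotent_chainEnd _ _

lemma isChainBasis_partElt (π : Nat.Partition n) :
    IsChainBasis (nilPart (partElt (F := F) π)) (partSize π) (partBasis π) := by
  rw [nilPart_partElt]; exact isChainBasis_chainEnd _ _

theorem card_unipotent_classes [Fintype F] (p : ℕ) [Fact p.Prime] [CharP F p] :
    Nat.card {C : ConjClasses (GLn) //
      ∃ g : GLn, (∃ k : ℕ, orderOf g = p ^ k) ∧ ConjClasses.mk g = C} =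
      Fintype.card (Nat.Partition n) := by
  rw [← Nat.card_eq_fintype_card]
  refine (Nat.card_eq_of_bijective (fun π : Nat.Partition n =>
    (⟨ConjClasses.mk (partElt π), partElt π,
      (isNilpotent_nilPart_iff _).1 (partElt_isNilpotent π), rfl⟩ :
      {C : ConjClasses (GLn) // ∃ g : GLn, (∃ k : ℕ, orderOf g = p ^ k) ∧ ConjClasses.mk g = C}))
    ⟨?_, ?_⟩).symm
  · intro π π' h
    have hc := ConjClasses.mk_eq_mk_iff_isConj.1 (congrArg Subtype.val h)
    have hpos : ∀ (ρ : Nat.Partition n) k, 1 ≤ partSize ρ k := fun ρ k =>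
      ρ.parts_pos (Multiset.mem_toList.1 (List.get_mem _ k))
    obtain ⟨σ, hσ⟩ := exists_equiv_of_rank_eq (isChainBasis_partElt (F := F) π)
      (isChainBasis_partElt (F := F) π') (hpos π) (hpos π') (ranks_eq_of_isConj hc)
    apply Nat.Partition.ext
    rw [← map_partSize π, ← map_partSize π',
      ← Finset.map_univ_equiv σ, Finset.map_val, Multiset.map_map]
    exact Multiset.map_congr rfl fun k _ => (hσ k).symm
  · rintro ⟨C, g, hg, rfl⟩
    obtain ⟨ι, _, d, b, hd, hb⟩ := exists_chainBasis _ ((isNilpotent_nilPart_iff g).2 hg)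
    let π : Nat.Partition n :=
      { parts := Finset.univ.val.map d
        parts_pos := fun hi => by
          obtain ⟨k, -, rfl⟩ := Multiset.mem_map.1 hi
          exact hd k
        parts_sum := by
          rw [← Finset.sum_eq_multiset_sum]
          have h := finrank_eq_card_basis b
          rw [Module.finrank_fin_fun, Fintype.card_sigma] at h
          simpa using h.symm }
    refine ⟨π, Subtype.ext (ConjClasses.mk_eq_mk_iff_isConj.2
      (isConj_of_ranks_eq (partElt_isNilpotent π) ((isNilpotent_nilPart_iff g).2 hg) fun j => ?_))⟩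
    rw [(isChainBasis_partElt π).rank_pow, hb.rank_pow, Finset.sum_eq_multiset_sum,
      Finset.sum_eq_multiset_sum]
    have h := congrArg (fun s : Multiset ℕ => (s.map fun x => x - j).sum) (map_partSize π)
    simp only [π, Multiset.map_map] at h
    exact h

end CfsgLib.Jordan
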