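import Cfsg.Agent.Eq.Def_Classical
import Cfsg.Agent.Eq.Def_GeometricClasses
import Cfsg.Agent.Eq.Def_ClassicalGeometry
import Cfsg.Agent.Classical.Orth.Index
import Cfsg.Agent.Jordan.UnipotentFixed

/-!
# Unipotent elements of Omega with prescribed type and their invariant subspaces
-/

set_option autoImplicit false

namespace CfsgLib.Jordan.UnipotentElusive

open Cfsg.Geo CfsgLib.OrthGeo Module
open scoped Matrix MatrixGroups

variable {ι : Type} [Fintype ι] [DecidableEq ι] {F : Type*} [Field F] [Finite F]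
variable {Q : (ι → F) → F}
variable (hQ : IsNondegenerateQuadraticForm Q)

lemma nondeg_bform : (bform hQ).Nondegenerate := b_nondeg hQ

lemma ker_bform : LinearMap.ker (bform hQ) = ⊥ :=
  (Submodule.eq_bot_iff _).2 fun x hx => (b_nondeg hQ).1 x fun y => LinearMap.congr_fun hx y

include hQ in
/-- A unipotent isometry of exponent `p` gives an element of order `p` in Omega. -/
theorem exists_element {p : ℕ} [hp : Fact p.Prime] [CharP F p] (hp2 : p ≠ 2) (hn : 2 ≤ Fintype.card ι)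
    {μ : Multiset ℕ} (hle : ∀ e ∈ μ, e ≤ p) (hbig : ∃ e ∈ μ, 1 < e) {u : Module.End F (ι → F)}
    (hu : ∀ x y, bform hQ (u x) (u y) = bform hQ x y) (hμ : Pieces.HasChain (u - 1) μ) :
    ∃ x : GL ι F, x ∈ omegaGL Q ∧ orderOf x = p ∧
      (∃ z : F, ((x ^ p : GL ι F) : Matrix ι ι F) = z • (1 : Matrix ι ι F)) ∧
      (∀ z : F, (x : Matrix ι ι F) ≠ z • (1 : Matrix ι ι F)) ∧ Matrix.toLin' (x : Matrix ι ι F) = u := by
  have h2 : (2 : F) ≠ 0 := fun h => hp2 (((Nat.prime_two).eq_one_or_self_of_dvd p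
    ((CharP.cast_eq_zero_iff F p 2).1 (by simpa using h))).resolve_left hp.out.ne_one)
  obtain ⟨g', hD⟩ := UnipotentFixed.isoData_of_iso (b_nondeg hQ) (b_symm hQ) hu
  let x : GL ι F := ⟨LinearMap.toMatrix' u, LinearMap.toMatrix' g',
    by rw [← LinearMap.toMatrix'_mul, hD.mul_inv, LinearMap.toMatrix'_one],
    by rw [← LinearMap.toMatrix'_mul, hD.inv_mul, LinearMap.toMatrix'_one]⟩
  have hxu : Matrix.toLin' (x : Matrix ι ι F) = u := Matrix.toLin'_toMatrix' u
  have hxv : ∀ v, (x : Matrix ι ι F) *ᵥ v = u v := fun v => by rw [← Matrix.toLin'_apply, hxu]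
  have hxi : x ∈ Cfsg.isometryGroup F Q := mem_isometryGroup.2 fun v => by
    have h := hu v v
    rw [b_self hQ, b_self hQ] at h
    rw [hxv]
    exact mul_left_cancel₀ h2 h
  have hNp : (u - 1) ^ p = 0 := UnipotentFixed.isNilpotent_of_hasChain hμ hle
  have : Nonempty ι := Fintype.card_pos_iff.1 (by omega)
  have hup : u ^ p = 1 := by
    haveI : CharP (Module.End F (ι → F)) p :=
      charP_of_injective_algebraMap (algebraMap F (Module.End F (ι → F))).injective p
    rw [← sub_eq_zero, ← hNp, sub_pow_char_of_commute p (Commute.one_right u), one_pow]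
  have hxp : x ^ p = 1 := Units.ext (by
    rw [Units.val_pow_eq_pow_val, Units.val_one]
    refine Matrix.toLin'.injective ?_
    rw [Matrix.toLin'_pow, hxu, hup, Matrix.toLin'_one]
    rfl)
  have hne : ∀ z : F, (x : Matrix ι ι F) ≠ z • (1 : Matrix ι ι F) := by
    intro z hz
    obtain ⟨e, he, he1⟩ := hbig
    obtain ⟨κ, _, d, b, hd, hb, rfl⟩ := hμ
    obtain ⟨k, -, rfl⟩ := Multiset.mem_map.1 he
    have e1 := hb.step k ⟨0, by omega⟩ he1
    have e2 : u (b ⟨k, ⟨0, by omega⟩⟩) = z • b ⟨k, ⟨0, by omega⟩⟩ := by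
      rw [← hxv, hz, Matrix.smul_mulVec, Matrix.one_mulVec]
    rw [LinearMap.sub_apply, Module.End.one_apply, e2, ← one_smul F (b ⟨k, ⟨0, _⟩⟩), smul_smul, mul_one,
      ← sub_smul] at e1
    have := congrArg (fun w => b.repr w ⟨k, ⟨1, he1⟩⟩) e1
    simp at this
  refine ⟨x, ?_, orderOf_eq_prime hxp (fun h => hne 1 (by rw [h]; simp)), ⟨1, by rw [hxp]; simp⟩, hne, hxu⟩
  have hnorm : (Cfsg.Omega F Q).Normal := inferInstance
  have hidx := CfsgLib.Classical.Orth.index_omega_odd hQ h2 hn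
  set y : Cfsg.isometryGroup F Q ⧸ Cfsg.Omega F Q := QuotientGroup.mk ⟨x, hxi⟩ with hy
  have h4 : orderOf y ∣ 4 := by
    have := orderOf_dvd_natCard y
    rwa [← Subgroup.index_eq_card, hidx] at this
  have hpy : orderOf y ∣ p := orderOf_dvd_of_pow_eq_one (by
    rw [hy, ← QuotientGroup.mk_pow]
    exact (QuotientGroup.eq_one_iff _).2 (by
      rw [show (⟨x, hxi⟩ : Cfsg.isometryGroup F Q) ^ p = 1 from Subtype.ext hxp]; exact one_mem _))
  have hcop : Nat.Coprime 4 p := by
    rw [show 4 = 2 ^ 2 by norm_num]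
    exact ((Nat.coprime_primes Nat.prime_two hp.out).2 (Ne.symm hp2)).pow_left 2
  have h1 : orderOf y = 1 := Nat.eq_one_of_dvd_coprimes hcop h4 hpy
  exact ⟨⟨x, hxi⟩, (QuotientGroup.eq_one_iff _).1 (orderOf_eq_one_iff.1 h1), rfl⟩

include hQ in
/-- The types of the invariant non-degenerate subspaces. -/
theorem fixed_type (h2 : (2 : F) ≠ 0) {μ : Multiset ℕ} {x : GL ι F} {u : Module.End F (ι → F)}
    (hxu : Matrix.toLin' (x : Matrix ι ι F) = u) (hu : ∀ v w, bform hQ (u v) (u w) = bform hQ v w)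
    (hμ : Pieces.HasChain (u - 1) μ) {W : Submodule F (ι → F)}
    (hWn : Cfsg.Geo.IsNondegenerateOn (QuadraticMap.polar Q) W)
    (hW : W.map (Matrix.toLin' (x : Matrix ι ι F)) ≤ W) :
    ∃ ν : Multiset ℕ, ν ≤ μ ∧ ν.sum = finrank F W ∧ (∀ e, Even e → Even (ν.count e)) ∧
      ((∀ e ∈ ν, Even e) → Cfsg.Geo.IsPlusTypeOn Q W) := by
  rw [hxu] at hW
  obtain ⟨ν, hν, hsum, hev, hplus⟩ := UnipotentFixed.exists_fixed_type h2 (b_nondeg hQ) (b_symm hQ) hu hμ
    (fun v hv => hW ⟨v, hv, rfl⟩) (fun v hv hv0 => (hWn v hv hv0).2)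
  refine ⟨ν, hν, hsum, hev, fun he => ?_⟩
  obtain ⟨U, hUW, hU, hUi⟩ := hplus he
  exact ⟨U, hUW, fun w hw => by
    have := hUi w hw w hw
    rw [b_self hQ] at this
    exact (mul_eq_zero.1 this).resolve_left h2, hU⟩

/-- The only parts outside `R` of a part of `a ::ₘ b ::ₘ R` with even sum. -/
theorem pair_split {a b : ℕ} {R ν : Multiset ℕ} (ha : Odd a) (hb : Odd b) (hR : ∀ e ∈ R, Even e)
    (hν : ν ≤ a ::ₘ b ::ₘ R) (hs : Even ν.sum) :
    ν ≤ R ∨ ∃ T ≤ R, ν = a ::ₘ b ::ₘ T := by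
  classical
  have hsplit := Multiset.filter_add_not (fun e => Even e) ν
  have h1 : ν.filter (fun e => Even e) ≤ R := by
    refine (Multiset.filter_le_filter _ hν).trans ?_
    rw [Multiset.filter_cons_of_neg _ (Nat.not_even_iff_odd.2 ha),
      Multiset.filter_cons_of_neg _ (Nat.not_even_iff_odd.2 hb), Multiset.filter_eq_self.2 hR]
  have h2 : ν.filter (fun e => ¬ Even e) ≤ a ::ₘ b ::ₘ 0 := by
    refine (Multiset.filter_le_filter _ hν).trans (le_of_eq ?_)
    rw [Multiset.filter_cons_of_pos (p := fun e => ¬ Even e) _ (Nat.not_even_iff_odd.2 ha),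
      Multiset.filter_cons_of_pos (p := fun e => ¬ Even e) _ (Nat.not_even_iff_odd.2 hb),
      Multiset.filter_eq_nil.2 (fun e he => not_not.2 (hR e he))]
  have hsum : Even (ν.filter (fun e => ¬ Even e)).sum := by
    rw [← hsplit, Multiset.sum_add, Nat.even_add] at hs
    refine hs.1 ?_
    refine Multiset.sum_induction _ _ (fun _ _ h h' => h.add h') ⟨0, rfl⟩ fun e he => ?_
    exact (Multiset.mem_filter.1 he).2
  have hm := Multiset.mem_powerset.2 h2
  simp only [Multiset.powerset_cons, Multiset.powerset_zero, Multiset.map_singleton, Multiset.mem_add,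
    Multiset.mem_singleton, Multiset.map_add] at hm
  rcases hm with (h | h) | (h | h)
  · left
    rw [← hsplit, h, add_zero]
    exact h1
  · rw [h, Multiset.sum_cons, Multiset.sum_zero, add_zero] at hsum
    exact absurd hsum (Nat.not_even_iff_odd.2 hb)
  · rw [h, Multiset.sum_cons, Multiset.sum_zero, add_zero] at hsum
    exact absurd hsum (Nat.not_even_iff_odd.2 ha)
  · right
    refine ⟨_, h1, ?_⟩
    conv_lhs => rw [← hsplit, h]
    simp [Multiset.add_cons]
    rw [← Multiset.singleton_add, add_comm]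

/-- A part of `2^(2j)` plus `R`: the twos come in pairs. -/
theorem twos_split {j : ℕ} {R ν : Multiset ℕ} (hR : ∀ e ∈ R, e ≠ 2)
    (hν : ν ≤ Multiset.replicate (2 * j) 2 + R) (hev : Even (ν.count 2)) :
    ∃ (i : ℕ) (T : Multiset ℕ), T ≤ R ∧ ν.sum = 4 * i + T.sum ∧ (∀ e ∈ ν, e = 2 ∨ e ∈ T) := by
  classical
  obtain ⟨i, hi⟩ := hev
  refine ⟨i, ν.filter (fun e => ¬ e = 2), ?_, ?_, fun e he => ?_⟩
  · refine (Multiset.filter_le_filter _ hν).trans (le_of_eq ?_)
    rw [Multiset.filter_add, Multiset.filter_eq_nil.2 (fun e he => not_not.2 (Multiset.eq_of_mem_replicate he)),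
      Multiset.filter_eq_self.2 hR, zero_add]
  · conv_lhs => rw [← Multiset.filter_add_not (fun e => e = 2) ν, Multiset.sum_add, Multiset.filter_eq' ν 2,
      hi, Multiset.sum_replicate]
    rw [smul_eq_mul]
    ring
  · by_cases h : e = 2
    · exact Or.inl h
    · exact Or.inr (Multiset.mem_filter.2 ⟨he, h⟩)

end CfsgLib.Jordan.UnipotentElusive
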