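import Cfsg.Agent.Jordan.CentralizerCard
import Cfsg.Agent.Classical.Unitary.RegularUnipotent
import Cfsg.Agent.Classical.Unitary.Order

/-!
# Centralizers of unipotent elements of `GU_n(q)`

The invertible Hermitian members of the commutant are the values of `g ↦ g* g` on its unit group,
so the unitary centralizer is counted by counting fixed points of the adjoint on the commutant and
on its block-diagonal quotient.
-/

set_option autoImplicit false

namespace CfsgLib.Jordan.UnitaryCentralizer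

open Cfsg Matrix CfsgLib.Unitary CfsgLib.Jordan.Centralizer

variable {K : Type*} [Field K] [Fintype K] {q : ℕ}

/-- The conjugate transpose on arbitrary index types. -/
def cji {ι κ : Type*} (q : ℕ) (M : Matrix ι κ K) : Matrix κ ι K := (M.map fun x => x ^ q).transpose

theorem cji_apply {ι κ : Type*} (M : Matrix ι κ K) (i : ι) (j : κ) : cji q M j i = M i j ^ q := rfl

theorem cji_cji (hK : Fintype.card K = q ^ 2) {ι κ : Type*} (M : Matrix ι κ K) :
    cji q (cji q M) = M := by
  ext i j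
  rw [cji_apply, cji_apply, pow_q_q hK]

theorem cji_add (hK : Fintype.card K = q ^ 2) {ι κ : Type*} (M N : Matrix ι κ K) :
    cji q (M + N) = cji q M + cji q N := by
  ext i j
  rw [Matrix.add_apply, cji_apply, cji_apply, cji_apply, Matrix.add_apply, add_pow_q hK]

theorem cji_smul {ι κ : Type*} (c : K) (M : Matrix ι κ K) : cji q (c • M) = c ^ q • cji q M := by
  ext i j
  rw [cji_apply, Matrix.smul_apply, Matrix.smul_apply, cji_apply, smul_eq_mul, smul_eq_mul, mul_pow]

theorem cji_mul (hK : Fintype.card K = q ^ 2) {ι κ μ : Type*} [Fintype κ] (M : Matrix ι κ K)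
    (N : Matrix κ μ K) : cji q (M * N) = cji q N * cji q M := by
  show ((M * N).map (conjHom hK)).transpose = _
  rw [Matrix.map_mul, Matrix.transpose_mul]
  rfl

theorem cji_one (hK : Fintype.card K = q ^ 2) {ι : Type*} [DecidableEq ι] :
    cji q (1 : Matrix ι ι K) = 1 := by
  ext i j
  rw [cji_apply, Matrix.one_apply, Matrix.one_apply]
  by_cases h : i = j
  · rw [if_pos h, if_pos h.symm, one_pow]
  · rw [if_neg h, if_neg (Ne.symm h), zero_pow_q hK]

theorem cji_reindex {ι κ : Type*} (e : ι ≃ κ) (M : Matrix ι ι K) :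
    cji q (Matrix.reindex e e M) = Matrix.reindex e e (cji q M) := rfl

theorem cjT_eq_cji {n : ℕ} (M : Matrix (Fin n) (Fin n) K) : cjT q M = cji q M := rfl

/-! ### Fixed points of semilinear involutions -/

theorem exists_omega (hK : Fintype.card K = q ^ 2) : ∃ c : K, c ^ q ≠ c := by
  classical
  by_contra hcon
  push Not at hcon
  have h := card_fixed hK
  rw [Nat.card_congr (Equiv.subtypeUnivEquiv hcon), Nat.card_eq_fintype_card, hK] at h
  have := two_le_q hK
  nlinarith

theorem card_fix_sq (hK : Fintype.card K = q ^ 2) {V : Type*} [AddCommGroup V] [Module K V] (s : V → V)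
    (hadd : ∀ v w, s (v + w) = s v + s w) (hsmul : ∀ (c : K) v, s (c • v) = c ^ q • s v)
    (hinv : ∀ v, s (s v) = v) : Nat.card {v // s v = v} ^ 2 = Nat.card V := by
  obtain ⟨ω, hω⟩ := exists_omega hK
  have hω' : ω ^ q - ω ≠ 0 := sub_ne_zero.2 hω
  have hsub : ∀ v w, s (v - w) = s v - s w := fun v w => by
    rw [eq_sub_iff_add_eq, ← hadd, sub_add_cancel]
  rw [sq, ← Nat.card_prod]
  refine Nat.card_congr (Equiv.ofBijective (fun p => (p.1 : V) + ω • (p.2 : V)) ⟨?_, ?_⟩)
  · rintro ⟨⟨a, ha⟩, ⟨b, hb⟩⟩ ⟨⟨a', ha'⟩, ⟨b', hb'⟩⟩ h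
    simp only at h
    have h' := congrArg s h
    rw [hadd, hadd, hsmul, hsmul, ha, hb, ha', hb'] at h'
    have h2 : (ω ^ q - ω) • (b - b') = 0 := by
      rw [sub_smul, smul_sub, smul_sub]
      linear_combination (norm := module) h' - h
    have hbb : b = b' := sub_eq_zero.1 ((smul_eq_zero.1 h2).resolve_left hω')
    subst hbb
    exact Prod.ext (Subtype.ext (add_right_cancel h)) rfl
  · intro v
    set b := (ω ^ q - ω)⁻¹ • (s v - v) with hb
    have hsb : s b = b := by
      rw [hb, hsmul, hsub, hinv, inv_pow, sub_pow_q hK, pow_q_q hK,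
        ← neg_sub (ω ^ q) ω, inv_neg, neg_smul, ← smul_neg, neg_sub]
    refine ⟨(⟨v - ω • b, ?_⟩, ⟨b, hsb⟩), sub_add_cancel _ _⟩
    have h1 : (ω ^ q - ω) • b = s v - v := smul_inv_smul₀ hω' _
    rw [sub_smul] at h1
    rw [hsub, hsmul, hsb]
    linear_combination (norm := module) -h1

theorem card_fix_units_mul (hK : Fintype.card K = q ^ 2) {A B : Type*} [Ring A] [Ring B]
    [Module K A] [Module K B] [Finite A] (f : A →+* B) (hf : Function.Surjective f)
    (hfs : ∀ (c : K) x, f (c • x) = c • f x) (hloc : ∀ x, IsUnit (f x) → IsUnit x)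
    (s : A → A) (sB : B → B) (hadd : ∀ v w, s (v + w) = s v + s w)
    (hsmul : ∀ (c : K) v, s (c • v) = c ^ q • s v) (hinv : ∀ v, s (s v) = v)
    (hcomm : ∀ x, f (s x) = sB (f x)) :
    Nat.card {a // s a = a ∧ IsUnit a} * Nat.card {b // sB b = b} =
      Nat.card {a // s a = a} * Nat.card {b // sB b = b ∧ IsUnit b} := by
  classical
  haveI : Finite B := Finite.of_surjective f hf
  obtain ⟨c, hc⟩ := exists_trace_eq hK (one_pow q : (1 : K) ^ q = 1)
  have hlift : ∀ b, sB b = b → ∃ a, s a = a ∧ f a = b := by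
    intro b hb
    obtain ⟨x, hx⟩ := hf b
    refine ⟨c • x + s (c • x), by rw [hadd, hinv, add_comm], ?_⟩
    rw [map_add, hfs, hcomm, ← hcomm, hsmul, hfs, hcomm, hx, hb, ← add_smul, hc, one_smul]
  have hsub : ∀ v w, s (v - w) = s v - s w := fun v w => by
    rw [eq_sub_iff_add_eq, ← hadd, sub_add_cancel]
  set k := Nat.card {a // s a = a ∧ f a = 0} with hk
  have key : ∀ (P : A → Prop) (Q : B → Prop), (∀ a, P a ↔ Q (f a)) →
      Nat.card {a // s a = a ∧ P a} = Nat.card {b // sB b = b ∧ Q b} * k := by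
    intro P Q hPQ
    haveI := Fintype.ofFinite {b // sB b = b ∧ Q b}
    let ψ : {a // s a = a ∧ P a} → {b // sB b = b ∧ Q b} := fun a =>
      ⟨f a.1, by rw [← hcomm, a.2.1], (hPQ _).1 a.2.2⟩
    rw [← Nat.card_congr (Equiv.sigmaFiberEquiv ψ), Nat.card_sigma, Finset.sum_congr rfl
      (fun b _ => (show Nat.card {a // ψ a = b} = k from ?_)), Finset.sum_const, Finset.card_univ,
      ← Nat.card_eq_fintype_card, smul_eq_mul]
    obtain ⟨a₀, ha₀, hfa₀⟩ := hlift b.1 b.2.1
    refine Nat.card_congr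
      { toFun := fun a => ⟨a.1.1 - a₀, by rw [hsub, a.1.2.1, ha₀], by
          rw [map_sub, hfa₀, sub_eq_zero]; exact congrArg Subtype.val a.2⟩
        invFun := fun z => ⟨⟨z.1 + a₀, by rw [hadd, z.2.1, ha₀], (hPQ _).2 (by
          rw [map_add, z.2.2, zero_add, hfa₀]; exact b.2.2)⟩, Subtype.ext (by
          show f (z.1 + a₀) = b.1
          rw [map_add, z.2.2, zero_add, hfa₀])⟩
        left_inv := fun a => Subtype.ext (Subtype.ext (sub_add_cancel _ _))
        right_inv := fun z => Subtype.ext (add_sub_cancel_right _ _) }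
  have h1 := key (fun a => IsUnit a) (fun b => IsUnit b) (fun a => ⟨fun h => h.map f, hloc a⟩)
  have h2 := key (fun _ => True) (fun _ => True) (fun _ => Iff.rfl)
  simp only [and_true] at h2
  rw [h1, h2]
  ring

/-! ### The norm map on a centralizer -/

theorem cjT_mem_commute (hK : Fintype.card K = q ^ 2) {n : ℕ} {u g : Matrix (Fin n) (Fin n) K}
    (hu : cjT q u * u = 1) (h : Commute g u) : Commute (cjT q g) u := by
  have hu' : u * cjT q u = 1 := mul_eq_one_comm.1 hu
  have h1 : cjT q u * cjT q g = cjT q g * cjT q u := by rw [← cjT_mul hK, ← cjT_mul hK, h.eq]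
  calc cjT q g * u = (u * cjT q u) * cjT q g * u := by rw [hu', one_mul]
    _ = u * cjT q g * (cjT q u * u) := by rw [mul_assoc u, h1]; simp only [mul_assoc]
    _ = u * cjT q g := by rw [hu, mul_one]

/-- The unitary centralizer times the invertible Hermitian centralising matrices is the centralizer. -/
theorem card_isometry_mul (hK : Fintype.card K = q ^ 2) {n : ℕ} (u : Matrix (Fin n) (Fin n) K)
    (hu : cjT q u * u = 1) :
    Nat.card {g : GL (Fin n) K // Commute (g : Matrix (Fin n) (Fin n) K) u ∧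
        cjT q (g : Matrix (Fin n) (Fin n) K) * (g : Matrix (Fin n) (Fin n) K) = 1} *
      Nat.card {h : Matrix (Fin n) (Fin n) K // Commute h u ∧ cjT q h = h ∧ IsUnit h} =
      Nat.card {g : GL (Fin n) K // Commute (g : Matrix (Fin n) (Fin n) K) u} := by
  classical
  let ψ : {g : GL (Fin n) K // Commute (g : Matrix (Fin n) (Fin n) K) u} →
      {h : Matrix (Fin n) (Fin n) K // Commute h u ∧ cjT q h = h ∧ IsUnit h} := fun g =>
    ⟨cjT q (g.1 : Matrix (Fin n) (Fin n) K) * (g.1 : Matrix (Fin n) (Fin n) K),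
      (cjT_mem_commute hK hu g.2).mul_left g.2, by rw [cjT_mul hK, cjT_cjT hK],
      (isUnit_cjT hK g.1.isUnit).mul g.1.isUnit⟩
  haveI := Fintype.ofFinite {h : Matrix (Fin n) (Fin n) K // Commute h u ∧ cjT q h = h ∧ IsUnit h}
  conv_rhs => rw [← Nat.card_congr (Equiv.sigmaFiberEquiv ψ), Nat.card_sigma]
  rw [Finset.sum_congr rfl (fun h _ => (show Nat.card {g // ψ g = h} = _ from ?_)), Finset.sum_const,
    Finset.card_univ, ← Nat.card_eq_fintype_card, smul_eq_mul, mul_comm]
  obtain ⟨Z, hZu, hZc, hZ⟩ := exists_cjT_mul_self hK h.2.2.1 h.2.2.2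
  set W := hZu.unit with hW
  have hWc : Commute (W : Matrix (Fin n) (Fin n) K) u := (hZc u h.2.1.symm).symm
  have hWW : Z * ((W⁻¹ : GL (Fin n) K) : Matrix (Fin n) (Fin n) K) = 1 := W.mul_inv
  refine Nat.card_congr
    { toFun := fun g => ⟨g.1.1 * W⁻¹, by
        rw [Units.val_mul]; exact g.1.2.mul_left hWc.units_inv_left, by
        rw [Units.val_mul, cjT_mul hK]
        calc _ = cjT q ((W⁻¹ : GL (Fin n) K) : Matrix (Fin n) (Fin n) K) *
              (cjT q (g.1.1 : Matrix (Fin n) (Fin n) K) * (g.1.1 : Matrix (Fin n) (Fin n) K)) *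
              ((W⁻¹ : GL (Fin n) K) : Matrix (Fin n) (Fin n) K) := by simp only [mul_assoc]
          _ = cjT q ((W⁻¹ : GL (Fin n) K) : Matrix (Fin n) (Fin n) K) * h.1 *
              ((W⁻¹ : GL (Fin n) K) : Matrix (Fin n) (Fin n) K) := by
            exact congrArg (fun T => cjT q ((W⁻¹ : GL (Fin n) K) : Matrix (Fin n) (Fin n) K) * T *
              ((W⁻¹ : GL (Fin n) K) : Matrix (Fin n) (Fin n) K)) (congrArg Subtype.val g.2)
          _ = cjT q (Z * ((W⁻¹ : GL (Fin n) K) : Matrix (Fin n) (Fin n) K)) *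
              (Z * ((W⁻¹ : GL (Fin n) K) : Matrix (Fin n) (Fin n) K)) := by
            rw [← hZ, cjT_mul hK]; simp only [mul_assoc]
          _ = 1 := by rw [hWW, cjT_one hK, one_mul]⟩
      invFun := fun c => ⟨⟨c.1 * W, by rw [Units.val_mul]; exact c.2.1.mul_left hWc⟩, Subtype.ext (by
        show cjT q ((c.1 * W : GL (Fin n) K) : Matrix (Fin n) (Fin n) K) *
          ((c.1 * W : GL (Fin n) K) : Matrix (Fin n) (Fin n) K) = h.1
        rw [Units.val_mul, cjT_mul hK, show (W : Matrix (Fin n) (Fin n) K) = Z from rfl, ← hZ]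
        calc _ = cjT q Z * (cjT q (c.1 : Matrix (Fin n) (Fin n) K) * (c.1 : Matrix (Fin n) (Fin n) K)) * Z := by
              simp only [mul_assoc]
          _ = cjT q Z * Z := by rw [c.2.2, mul_one])⟩
      left_inv := fun g => Subtype.ext (Subtype.ext (inv_mul_cancel_right _ _))
      right_inv := fun c => Subtype.ext (mul_inv_cancel_right _ _) }

/-- `|GU_a| · #(invertible Hermitian) = |GL_a|`. -/
theorem card_GU_mul (hK : Fintype.card K = q ^ 2) (a : ℕ) :
    Nat.card ↥(GU a K q) * Nat.card {h : Matrix (Fin a) (Fin a) K // cjT q h = h ∧ IsUnit h} =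
      Nat.card (GL (Fin a) K) := by
  have h := card_isometry_mul hK (1 : Matrix (Fin a) (Fin a) K) (by rw [cjT_one hK, one_mul])
  simp only [Commute.one_right, true_and] at h
  rw [Nat.card_congr (Equiv.subtypeEquivRight (fun _ => Iff.intro (fun x => x) (fun x => x)) :
      {g : GL (Fin a) K // True} ≃ {g : GL (Fin a) K // True})] at h
  rw [Nat.card_congr (Equiv.subtypeUnivEquiv (fun _ : GL (Fin a) K => trivial))] at h
  rw [← h]
  congr 1
  exact Nat.card_congr (Equiv.subtypeEquivRight fun g => mem_GU_iff_cjT hK)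

/-! ### A block diagonal invariant form -/

omit [Fintype K] in
theorem jordanBlock_sub_one_pow (i m : ℕ) :
    (Cfsg.jordanBlock i K - 1) ^ m =
      Matrix.of fun a b : Fin i => if (a : ℕ) = (b : ℕ) + m then (1 : K) else 0 := by
  induction m with
  | zero => ext a b; simp [Matrix.one_apply, Fin.ext_iff]
  | succ m ih =>
    rw [pow_succ, ih]
    ext a b
    rw [Matrix.mul_apply]
    have hent : ∀ x : Fin i, (Cfsg.jordanBlock i K - 1) x b = if (x : ℕ) = (b : ℕ) + 1 then 1 else 0 := by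
      intro x
      by_cases h : x = b
      · subst h; simp [Cfsg.jordanBlock]
      · have : (x : ℕ) ≠ b := fun e => h (Fin.ext e)
        simp [Cfsg.jordanBlock, Matrix.one_apply, h, this]
    simp only [hent, Matrix.of_apply, mul_ite, mul_one, mul_zero]
    by_cases hb : (b : ℕ) + 1 < i
    · rw [Finset.sum_eq_single ⟨(b : ℕ) + 1, hb⟩]
      · simp [add_assoc, add_comm 1 m]
      · intro x _ hx
        rw [if_neg]
        intro e
        exact hx (Fin.ext e)
      · simp
    · rw [Finset.sum_eq_zero (fun x _ => if_neg (by omega)), if_neg (by omega)]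

theorem exists_block_form (hK : Fintype.card K = q ^ 2) (i : ℕ) :
    ∃ X : Matrix (Fin i) (Fin i) K, IsUnit X ∧ cjT q X = X ∧
      cjT q (Cfsg.jordanBlock i K) * X * Cfsg.jordanBlock i K = X := by
  rcases i with _ | k
  · exact ⟨1, isUnit_one, Subsingleton.elim _ _, Subsingleton.elim _ _⟩
  obtain ⟨u, hu, hun, hur, -⟩ := exists_regular_unipotent_GU (k := k) hK
  have h1 : (Cfsg.jordanBlock (k + 1) K - 1) ^ (k + 1) = 0 := by
    ext a b
    rw [jordanBlock_sub_one_pow, Matrix.of_apply, if_neg (by omega), Matrix.zero_apply]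
  have h2 : (Cfsg.jordanBlock (k + 1) K - 1) ^ k ≠ 0 := by
    intro h
    have := congrFun (congrFun h (Fin.last k)) 0
    rw [jordanBlock_sub_one_pow, Matrix.of_apply, if_pos (by simp), Matrix.zero_apply] at this
    exact one_ne_zero this
  obtain ⟨P, hP⟩ := exists_conj_of_pow_ne_zero h1 hun h2 (pow_ne_zero_of_rank hun hur)
  rw [mul_sub, mul_one, sub_mul, one_mul, sub_left_inj] at hP
  refine ⟨cjT q (P : Matrix (Fin (k + 1)) (Fin (k + 1)) K) * (P : Matrix (Fin (k + 1)) (Fin (k + 1)) K),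
    (isUnit_cjT hK P.isUnit).mul P.isUnit, by rw [cjT_mul hK, cjT_cjT hK], ?_⟩
  calc _ = cjT q ((P : Matrix (Fin (k + 1)) (Fin (k + 1)) K) * Cfsg.jordanBlock (k + 1) K) *
        ((P : Matrix (Fin (k + 1)) (Fin (k + 1)) K) * Cfsg.jordanBlock (k + 1) K) := by
        rw [cjT_mul hK]; simp only [mul_assoc]
    _ = cjT q (P : Matrix (Fin (k + 1)) (Fin (k + 1)) K) * (cjT q (u : Matrix (Fin (k + 1)) (Fin (k + 1)) K) *
        (u : Matrix (Fin (k + 1)) (Fin (k + 1)) K)) * (P : Matrix (Fin (k + 1)) (Fin (k + 1)) K) := by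
        rw [hP, cjT_mul hK]; simp only [mul_assoc]
    _ = _ := by rw [(mem_GU_iff_cjT hK).1 hu, mul_one]

omit [Fintype K] in
theorem row_zero_of_commute {i : ℕ} {Y : Matrix (Fin i) (Fin i) K}
    (hY : Commute Y (Cfsg.jordanBlock i K)) (h0 : 0 < i) {j : Fin i} (hj : (j : ℕ) ≠ 0) :
    Y ⟨0, h0⟩ j = 0 := by
  have hY' : Commute Y (Cfsg.jordanBlock i K - 1) := hY.sub_right (Commute.one_right _)
  have hN : ∀ a b : Fin i, (Cfsg.jordanBlock i K - 1) a b =
      if (a : ℕ) = (b : ℕ) + 1 then (1 : K) else 0 := fun a b => by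
    have := congrFun (congrFun (jordanBlock_sub_one_pow (K := K) i 1) a) b
    rwa [pow_one] at this
  have h := congrFun (congrFun hY'.eq ⟨0, h0⟩) ⟨(j : ℕ) - 1, by omega⟩
  rw [Matrix.mul_apply, Matrix.mul_apply] at h
  simp only [hN] at h
  rw [Finset.sum_eq_single j, Finset.sum_eq_zero] at h
  · rw [if_pos (show (j : ℕ) = (j : ℕ) - 1 + 1 by omega), mul_one] at h
    exact h
  · intro x _
    rw [if_neg (show ¬ (0 : ℕ) = (x : ℕ) + 1 by omega), zero_mul]
  · intro x _ hx
    rw [if_neg, mul_zero]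
    intro e
    exact hx (Fin.ext (show (x : ℕ) = j by omega))
  · simp

omit [Fintype K] in
theorem mul_corner {i : ℕ} {Y Z : Matrix (Fin i) (Fin i) K}
    (hY : Commute Y (Cfsg.jordanBlock i K)) (h0 : 0 < i) :
    (Y * Z) ⟨0, h0⟩ ⟨0, h0⟩ = Y ⟨0, h0⟩ ⟨0, h0⟩ * Z ⟨0, h0⟩ ⟨0, h0⟩ := by
  rw [Matrix.mul_apply, Finset.sum_eq_single (⟨0, h0⟩ : Fin i)]
  · intro x _ hx
    rw [row_zero_of_commute hY h0 (fun e => hx (Fin.ext e)), zero_mul]
  · simp

omit [Fintype K] in
theorem corner_pow {i : ℕ} {Y : Matrix (Fin i) (Fin i) K}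
    (hY : Commute Y (Cfsg.jordanBlock i K)) (h0 : 0 < i) (m : ℕ) :
    (Y ^ m) ⟨0, h0⟩ ⟨0, h0⟩ = Y ⟨0, h0⟩ ⟨0, h0⟩ ^ m := by
  induction m with
  | zero => simp
  | succ m ih => rw [pow_succ', mul_corner hY h0, ih, pow_succ']

/-- On a single block the adjoint conjugates the leading coefficient. -/
theorem corner_adjoint (hK : Fintype.card K = q ^ 2) (X : (i : ℕ) → Matrix (Fin i) (Fin i) K)
    (hXu : ∀ i, IsUnit (X i))
    (hXJ : ∀ i, cjT q (Cfsg.jordanBlock i K) * X i * Cfsg.jordanBlock i K = X i)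
    {i j : ℕ} (hij : i = j) (Y : Matrix (Fin j) (Fin i) K)
    (hY : Y * Cfsg.jordanBlock i K = Cfsg.jordanBlock j K * Y) (hi : 0 < i) (hj : 0 < j) :
    ((X i)⁻¹ * cji q Y * X j) ⟨0, hi⟩ ⟨0, hj⟩ = Y ⟨0, hj⟩ ⟨0, hi⟩ ^ q := by
  subst hij
  set M := Cfsg.jordanBlock i K with hM
  have hd : IsUnit (X i).det := (Matrix.isUnit_iff_isUnit_det _).1 (hXu i)
  have hnilN : IsNilpotent (M - 1) := ⟨i, by
    ext a b
    rw [jordanBlock_sub_one_pow, Matrix.of_apply, if_neg (by omega), Matrix.zero_apply]⟩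
  have hMu : IsUnit M := by simpa using hnilN.isUnit_add_one
  have hcomm : ∀ W : Matrix (Fin i) (Fin i) K, Commute W M → Commute ((X i)⁻¹ * cjT q W * X i) M := by
    intro W hW
    have h1 : (X i) * M = (cjT q M)⁻¹ * X i := by
      have hu := (Matrix.isUnit_iff_isUnit_det _).1 (isUnit_cjT hK hMu)
      conv_rhs => rw [← hXJ i]
      rw [← hM, mul_assoc (cjT q M), ← mul_assoc (cjT q M)⁻¹, Matrix.nonsing_inv_mul _ hu, one_mul]
    have h2 : M * (X i)⁻¹ = (X i)⁻¹ * (cjT q M)⁻¹ := by
      calc M * (X i)⁻¹ = (X i)⁻¹ * ((X i) * M) * (X i)⁻¹ := by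
            rw [← mul_assoc, Matrix.nonsing_inv_mul _ hd, one_mul]
        _ = _ := by rw [h1, mul_assoc _ (_ * _), mul_assoc _ (X i), Matrix.mul_nonsing_inv _ hd, mul_one]
    have h3 : cjT q W * (cjT q M)⁻¹ = (cjT q M)⁻¹ * cjT q W := by
      have h4 : Commute (cjT q W) (cjT q M) := by
        show cjT q W * cjT q M = cjT q M * cjT q W
        rw [← cjT_mul hK, ← cjT_mul hK, hW.eq]
      obtain ⟨w, hw⟩ := isUnit_cjT (q := q) hK hMu
      rw [← hw] at h4 ⊢
      rw [← Matrix.coe_units_inv]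
      exact h4.units_inv_right
    show (X i)⁻¹ * cjT q W * X i * M = M * ((X i)⁻¹ * cjT q W * X i)
    rw [mul_assoc _ (X i), h1, ← mul_assoc, mul_assoc _ (cjT q W), h3, ← mul_assoc M, ← mul_assoc M, h2]
    simp only [mul_assoc]
  have hY' : Commute Y M := hY
  set c := Y ⟨0, hi⟩ ⟨0, hi⟩
  set R := Y - c • (1 : Matrix (Fin i) (Fin i) K) with hR
  have hRc : Commute R M := hY'.sub_left ((Commute.one_left M).smul_left c)
  have hR0 : R ⟨0, hi⟩ ⟨0, hi⟩ = 0 := by simp [hR, c]
  have hRn : R ^ i = 0 := by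
    have hRN : Commute R (M - 1) := hRc.sub_right (Commute.one_right _)
    ext a b
    rw [Matrix.zero_apply]
    have key : ∀ (m : ℕ) (a b : Fin i), (a : ℕ) < (b : ℕ) + m → (R ^ m) a b = 0 := by
      intro m
      induction m with
      | zero =>
        intro a b h
        rw [pow_zero, Matrix.one_apply_ne]
        intro e; subst e; omega
      | succ m ih =>
        intro a b h
        rw [pow_succ, Matrix.mul_apply]
        refine Finset.sum_eq_zero fun x _ => ?_
        by_cases hx : (a : ℕ) < (x : ℕ) + m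
        · rw [ih a x hx, zero_mul]
        · have hxb : (x : ℕ) ≤ b := by omega
          have hcol : ∀ (v : ℕ) (hv : v < i) (y : Fin i), v ≤ (y : ℕ) → R ⟨v, hv⟩ y = 0 := by
            intro v
            induction v with
            | zero =>
              intro hv y _
              by_cases hy : (y : ℕ) = 0
              · rw [show y = ⟨0, hi⟩ from Fin.ext hy]; exact hR0
              · exact row_zero_of_commute hRc hi hy
            | succ v ihv =>
              intro hv y hy
              have hN : ∀ a b : Fin i, (M - 1) a b = if (a : ℕ) = (b : ℕ) + 1 then (1 : K) else 0 :=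
                fun a b => by
                have := congrFun (congrFun (jordanBlock_sub_one_pow (K := K) i 1) a) b
                rwa [pow_one] at this
              have h5 := congrFun (congrFun hRN.eq ⟨v + 1, hv⟩) ⟨(y : ℕ) - 1, by omega⟩
              rw [Matrix.mul_apply, Matrix.mul_apply] at h5
              simp only [hN] at h5
              rw [Finset.sum_eq_single y, Finset.sum_eq_single (⟨v, by omega⟩ : Fin i)] at h5
              · rw [if_pos (show (y : ℕ) = (y : ℕ) - 1 + 1 by omega), if_pos rfl, mul_one, one_mul] at h5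
                rw [h5]
                exact ihv _ _ (show v ≤ (y : ℕ) - 1 by omega)
              · intro z _ hz
                rw [if_neg, zero_mul]
                intro e
                exact hz (Fin.ext (show (z : ℕ) = v by omega))
              · simp
              · intro z _ hz
                rw [if_neg, mul_zero]
                intro e
                exact hz (Fin.ext (show (z : ℕ) = y by omega))
              · simp
          rw [show R x b = R ⟨(x : ℕ), x.2⟩ b from rfl, hcol _ x.2 b hxb, mul_zero]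
    exact key i a b (by omega)
  have hR' : ((X i)⁻¹ * cjT q R * X i) ⟨0, hi⟩ ⟨0, hi⟩ = 0 := by
    have hpow : ∀ m, ((X i)⁻¹ * cjT q R * X i) ^ m = (X i)⁻¹ * cjT q (R ^ m) * X i := by
      intro m
      induction m with
      | zero => rw [pow_zero, pow_zero, cjT_one hK, mul_one, Matrix.nonsing_inv_mul _ hd]
      | succ m ih =>
        rw [pow_succ, ih, pow_succ', cjT_mul hK]
        calc _ = (X i)⁻¹ * cjT q (R ^ m) * ((X i) * (X i)⁻¹) * cjT q R * X i := by simp only [mul_assoc]
          _ = _ := by rw [Matrix.mul_nonsing_inv _ hd, mul_one]; simp only [mul_assoc]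
    have h6 := corner_pow (hcomm R hRc) hi i
    rw [hpow, hRn] at h6
    have h0 : cjT q (0 : Matrix (Fin i) (Fin i) K) = 0 := by
      ext a b; simp [cjT, zero_pow_q hK]
    rw [h0, mul_zero, zero_mul, Matrix.zero_apply] at h6
    exact pow_eq_zero_iff (Nat.pos_iff_ne_zero.1 hi) |>.1 h6.symm
  have hsplit : cji q Y = c ^ q • (1 : Matrix (Fin i) (Fin i) K) + cjT q R := by
    rw [cjT_eq_cji, ← cji_one (q := q) hK, ← cji_smul, ← cji_add hK, hR, add_sub_cancel]
  rw [hsplit, mul_add, add_mul, Matrix.add_apply, hR', add_zero, Matrix.mul_smul, Matrix.mul_one,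
    Matrix.smul_mul, Matrix.nonsing_inv_mul _ hd]
  simp [c]

/-! ### The count -/

variable {t : ℕ} (d : Fin t → ℕ)

local notation "Idx" => ((k : Fin t) × Fin (d k))

theorem block_entry (L R : (k : Fin t) → Matrix (Fin (d k)) (Fin (d k)) K) (Y : Matrix Idx Idx K)
    (l k : Fin t) (a : Fin (d l)) (b : Fin (d k)) :
    (blockDiagonal' L * cji q Y * blockDiagonal' R) ⟨l, a⟩ ⟨k, b⟩ =
      (L l * cji q (Matrix.of fun (x : Fin (d k)) (y : Fin (d l)) => Y ⟨k, x⟩ ⟨l, y⟩) * R k) a b := by
  classical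
  rw [Matrix.mul_apply, Fintype.sum_sigma, Finset.sum_eq_single k, Matrix.mul_apply]
  · refine Finset.sum_congr rfl fun x _ => ?_
    rw [blockDiagonal'_apply_eq]
    congr 1
    rw [Matrix.mul_apply, Fintype.sum_sigma, Finset.sum_eq_single l, Matrix.mul_apply]
    · refine Finset.sum_congr rfl fun y _ => ?_
      rw [blockDiagonal'_apply_eq, cji_apply, cji_apply, Matrix.of_apply]
    · intro m _ hm
      exact Finset.sum_eq_zero fun y _ => by rw [blockDiagonal'_apply_ne _ _ _ (Ne.symm hm), zero_mul]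
    · simp
  · intro m _ hm
    exact Finset.sum_eq_zero fun y _ => by rw [blockDiagonal'_apply_ne _ _ _ hm, mul_zero]
  · simp

theorem block_commute {Y : Matrix Idx Idx K} (hY : Y ∈ commutant d) (l k : Fin t) :
    (Matrix.of fun (x : Fin (d l)) (y : Fin (d k)) => Y ⟨l, x⟩ ⟨k, y⟩) * Cfsg.jordanBlock (d k) K =
      Cfsg.jordanBlock (d l) K *
        (Matrix.of fun (x : Fin (d l)) (y : Fin (d k)) => Y ⟨l, x⟩ ⟨k, y⟩) := by
  classical
  have h : Y * Cfsg.jordanTypeMatrix d K = Cfsg.jordanTypeMatrix d K * Y := by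
    rw [jordanTypeMatrix_eq, mul_add, add_mul, mul_one, one_mul, (mem_commutant d).1 hY]
  ext a b
  have h' := congrFun (congrFun h ⟨l, a⟩) ⟨k, b⟩
  rw [Cfsg.jordanTypeMatrix, Matrix.mul_apply, Matrix.mul_apply, Fintype.sum_sigma, Fintype.sum_sigma,
    Finset.sum_eq_single k, Finset.sum_eq_single l] at h'
  · simp only [blockDiagonal'_apply_eq] at h'
    simpa [Matrix.mul_apply] using h'
  · intro m _ hm
    exact Finset.sum_eq_zero fun y _ => by rw [blockDiagonal'_apply_ne _ _ _ (Ne.symm hm), zero_mul]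
  · simp
  · intro m _ hm
    exact Finset.sum_eq_zero fun y _ => by rw [blockDiagonal'_apply_ne _ _ _ hm, mul_zero]
  · simp

theorem card_fix_units_pi (hK : Fintype.card K = q ^ 2) {ι : Type*} [Fintype ι] (T : ι → Type*)
    [∀ i, Fintype (T i)] [∀ i, DecidableEq (T i)] :
    Nat.card {b : (i : ι) → Matrix (T i) (T i) K // (fun i => cji q (b i)) = b ∧ IsUnit b} *
        ∏ i, Nat.card ↥(GU (Fintype.card (T i)) K q) =
      Nat.card ((i : ι) → Matrix (T i) (T i) K)ˣ := by
  classical
  have e1 : {b : (i : ι) → Matrix (T i) (T i) K // (fun i => cji q (b i)) = b ∧ IsUnit b} ≃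
      ((i : ι) → {h : Matrix (T i) (T i) K // cji q h = h ∧ IsUnit h}) :=
    (Equiv.subtypeEquivRight fun b => by
      rw [Pi.isUnit_iff, funext_iff, ← forall_and]).trans
      (Equiv.subtypePiEquivPi (p := fun i (h : Matrix (T i) (T i) K) => cji q h = h ∧ IsUnit h))
  rw [Nat.card_congr e1, Nat.card_pi, Nat.card_congr MulEquiv.piUnits.toEquiv, Nat.card_pi,
    ← Finset.prod_mul_distrib]
  refine Finset.prod_congr rfl fun i _ => ?_
  let E := Matrix.reindexAlgEquiv K K (Fintype.equivFin (T i))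
  rw [Nat.card_congr (Units.mapEquiv E.toRingEquiv.toMulEquiv).toEquiv,
    ← card_GU_mul (K := K) hK (Fintype.card (T i)), mul_comm]
  congr 1
  refine Nat.card_congr (E.toEquiv.subtypeEquiv fun h => ?_)
  refine and_congr ?_ (isUnit_map_iff E h).symm
  show _ ↔ cji q (E h) = E h
  rw [show cji q (E h) = E (cji q h) from rfl, E.injective.eq_iff]

theorem card_GU_cast (hK : Fintype.card K = q ^ 2) (a : ℕ) :
    (Nat.card ↥(GU a K q) : ℤ) = (q : ℤ) ^ (a * (a - 1) / 2) *
      ∏ j : Fin a, ((q : ℤ) ^ ((j : ℕ) + 1) - (-1) ^ ((j : ℕ) + 1)) := by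
  rw [card_GU hK, Nat.cast_mul, Nat.cast_pow, Nat.cast_prod, ← Fin.prod_univ_eq_prod_range]
  congr 1
  refine Finset.prod_congr rfl fun j _ => ?_
  rcases Nat.even_or_odd (j : ℕ) with h | h
  · rw [if_pos h, h.add_one.neg_one_pow]
    push_cast; ring
  · have := two_le_q hK
    rw [if_neg (Nat.not_even_iff_odd.2 h), h.add_one.neg_one_pow,
      Nat.cast_sub (Nat.one_le_pow _ _ (by omega))]
    push_cast; ring

/-- The order of the centralizer in `GU_n(q)` of a unipotent element of type `d`. -/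
theorem card_centralizer_GU (hK : Fintype.card K = q ^ 2) (hd : ∀ k, 1 ≤ d k) {n : ℕ} (e : Idx ≃ Fin n)
    (hconj : ∀ A B : ↥(GU n K q), IsConj (A : GL (Fin n) K) (B : GL (Fin n) K) → IsConj A B)
    (u : ↥(GU n K q))
    (hu : IsConj (Matrix.reindex e e (Cfsg.jordanTypeMatrix d K))
      ((u : GL (Fin n) K) : Matrix (Fin n) (Fin n) K)) :
    Nat.card ↥(Subgroup.centralizer ({u} : Set ↥(GU n K q))) =
      q ^ (2 * (∑ i ∈ Finset.range (Finset.univ.sup d + 1),
          ∑ j ∈ Finset.range (Finset.univ.sup d + 1),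
            if i < j then i * (Finset.univ.filter (fun k : Fin t => d k = i)).card *
              (Finset.univ.filter (fun k : Fin t => d k = j)).card else 0) +
        ∑ i ∈ Finset.range (Finset.univ.sup d + 1),
          (i - 1) * (Finset.univ.filter (fun k : Fin t => d k = i)).card ^ 2) *
      ∏ i ∈ Finset.range (Finset.univ.sup d + 1),
        Nat.card ↥(GU (Finset.univ.filter (fun k : Fin t => d k = i)).card K q) := by
  classical
  choose X hXu hXh hXJ using fun i => exists_block_form (K := K) (q := q) hK i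
  set Xd : Matrix Idx Idx K := blockDiagonal' (fun k => X (d k)) with hXd
  set Xi : Matrix Idx Idx K := blockDiagonal' (fun k => (X (d k))⁻¹) with hXi
  have hXX : Xi * Xd = 1 := by
    rw [hXi, hXd, ← blockDiagonal'_mul]
    simp [Matrix.nonsing_inv_mul _ ((Matrix.isUnit_iff_isUnit_det _).1 (hXu _))]
    exact blockDiagonal'_one
  have hXX' : Xd * Xi = 1 := mul_eq_one_comm.1 hXX
  have hbd : ∀ Y : (k : Fin t) → Matrix (Fin (d k)) (Fin (d k)) K,
      cji q (blockDiagonal' Y) = blockDiagonal' (fun k => cji q (Y k)) := fun Y => by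
    ext ⟨l, a⟩ ⟨k, b⟩
    rw [cji_apply]
    by_cases h : l = k
    · subst h
      rw [blockDiagonal'_apply_eq, blockDiagonal'_apply_eq, cji_apply]
    · rw [blockDiagonal'_apply_ne _ _ _ h, blockDiagonal'_apply_ne _ _ _ (Ne.symm h), zero_pow_q hK]
  have hXdh : cji q Xd = Xd := by
    rw [hXd, hbd]
    exact congrArg _ (funext fun k => hXh (d k))
  set M : Matrix Idx Idx K := Cfsg.jordanTypeMatrix d K with hM
  have hMX : cji q M * Xd * M = Xd := by
    rw [hM, Cfsg.jordanTypeMatrix, hbd, hXd, ← blockDiagonal'_mul, ← blockDiagonal'_mul]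
    exact congrArg _ (funext fun k => hXJ (d k))
  let φ := Matrix.reindexAlgEquiv K K e
  have hφ : ∀ Y, cjT q (φ Y) = φ (cji q Y) := fun Y => rfl
  have hXnu : IsUnit (φ Xd) := IsUnit.of_mul_eq_one (φ Xi) (by rw [← map_mul, hXX', map_one])
  obtain ⟨Z, hZu, -, hZ⟩ := exists_cjT_mul_self hK (H := φ Xd) (by rw [hφ, hXdh]) hXnu
  set W := hZu.unit with hW
  set Z' : Matrix (Fin n) (Fin n) K := ((W⁻¹ : GL (Fin n) K) : Matrix (Fin n) (Fin n) K) with hZ'
  have hZZ' : Z * Z' = 1 := W.mul_inv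
  have hZ'Z : Z' * Z = 1 := W.inv_mul
  -- the transported algebra isomorphism
  let E : Matrix Idx Idx K →+* Matrix (Fin n) (Fin n) K :=
    { toFun := fun Y => Z * φ Y * Z'
      map_one' := by rw [map_one, mul_one, hZZ']
      map_mul' := fun Y Y' => by
        rw [map_mul]
        calc _ = Z * φ Y * (Z' * Z) * φ Y' * Z' := by rw [hZ'Z, mul_one]; simp only [mul_assoc]
          _ = _ := by simp only [mul_assoc]
      map_zero' := by rw [map_zero, mul_zero, zero_mul]
      map_add' := fun Y Y' => by rw [map_add, mul_add, add_mul] }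
  have hE : ∀ Y, E Y = Z * φ Y * Z' := fun Y => rfl
  have hEinj : Function.Injective E := fun Y Y' h => φ.injective (by
    have h' := congrArg (fun T => Z' * T * Z) h
    simp only [hE] at h'
    calc φ Y = Z' * Z * φ Y * (Z' * Z) := by rw [hZ'Z, one_mul, mul_one]
      _ = Z' * Z * φ Y' * (Z' * Z) := by simpa only [mul_assoc] using h'
      _ = φ Y' := by rw [hZ'Z, one_mul, mul_one])
  have hEsurj : Function.Surjective E := fun T => ⟨φ.symm (Z' * T * Z), by
    rw [hE, φ.apply_symm_apply]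
    calc _ = Z * Z' * T * (Z * Z') := by simp only [mul_assoc]
      _ = T := by rw [hZZ', one_mul, mul_one]⟩
  let s : Matrix Idx Idx K → Matrix Idx Idx K := fun Y => Xi * cji q Y * Xd
  have hEs : ∀ Y, E (s Y) = cjT q (E Y) := by
    intro Y
    have h1 : φ Xi = Z' * cjT q Z' := by
      have h2 : φ Xd * (Z' * cjT q Z') = 1 := by
        rw [← hZ]
        calc _ = cjT q Z * (Z * Z') * cjT q Z' := by simp only [mul_assoc]
          _ = 1 := by rw [hZZ', mul_one, ← cjT_mul hK, hZ'Z, cjT_one hK]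
      calc φ Xi = φ Xi * (φ Xd * (Z' * cjT q Z')) := by rw [h2, mul_one]
        _ = _ := by rw [← mul_assoc, ← map_mul, hXX, map_one, one_mul]
    rw [hE, hE, map_mul, map_mul, h1, ← hZ, ← hφ, cjT_mul hK, cjT_mul hK]
    calc _ = (Z * Z') * cjT q Z' * cjT q (φ Y) * cjT q Z * (Z * Z') := by simp only [mul_assoc]
      _ = _ := by rw [hZZ', one_mul, mul_one]; simp only [mul_assoc]
  set u' : Matrix (Fin n) (Fin n) K := E M with hu'
  have hu'1 : cjT q u' * u' = 1 := by
    rw [hu', ← hEs, ← map_mul, show s M * M = 1 from ?_, map_one]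
    show Xi * cji q M * Xd * M = 1
    rw [mul_assoc Xi, mul_assoc Xi, hMX, hXX]
  have hcomm : ∀ Y, Y ∈ commutant d ↔ Commute (E Y) u' := fun Y => by
    rw [mem_commutant]
    constructor
    · intro h
      show E Y * E M = E M * E Y
      rw [← map_mul, ← map_mul, hM, jordanTypeMatrix_eq, mul_add, add_mul, mul_one, one_mul, h]
    · intro h
      have h' : Y * M = M * Y := hEinj (by rw [map_mul, map_mul]; exact h.eq)
      rwa [hM, jordanTypeMatrix_eq, mul_add, add_mul, mul_one, one_mul, add_right_inj] at h'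
  have hsmem : ∀ Y, Y ∈ commutant d → s Y ∈ commutant d := fun Y hY => by
    rw [hcomm, hEs]
    exact cjT_mem_commute hK hu'1 ((hcomm Y).1 hY)
  let sA : commutant (F := K) d → commutant (F := K) d := fun Y => ⟨s Y, hsmem Y Y.2⟩
  have hs_add : ∀ v w, sA (v + w) = sA v + sA w := fun v w => Subtype.ext (by
    show Xi * cji q ((v : Matrix Idx Idx K) + (w : Matrix Idx Idx K)) * Xd = _
    rw [cji_add hK, mul_add, add_mul]; rfl)
  have hs_smul : ∀ (c : K) v, sA (c • v) = c ^ q • sA v := fun c v => Subtype.ext (by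
    show Xi * cji q (c • (v : Matrix Idx Idx K)) * Xd = _
    rw [cji_smul, Matrix.mul_smul, Matrix.smul_mul]; rfl)
  have hs_inv : ∀ v, sA (sA v) = v := fun v => Subtype.ext (hEinj (by
    show E (s (s (v : Matrix Idx Idx K))) = _
    rw [hEs, hEs, cjT_cjT hK]))
  set f := topPart (F := K) d hd with hf
  have hfsurj : Function.Surjective f := topPart_surjective (F := K) d hd
  have hfsmul : ∀ (c : K) (x : commutant (F := K) d), f (c • x) = c • f x := fun c x => rfl
  have hloc : ∀ x, IsUnit (f x) → IsUnit x := by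
    intro x hu
    obtain ⟨v, hv⟩ := hu
    obtain ⟨y, hy⟩ := hfsurj (↑v⁻¹ : _)
    have h1 : IsUnit (x * y) := by
      have hn : IsNilpotent (x * y - 1) := isNilpotent_of_topPart_eq_zero d hd
        (by show f _ = 0; rw [map_sub, map_mul, map_one, ← hv, hy, Units.mul_inv, sub_self])
      simpa using hn.isUnit_add_one
    obtain ⟨z, hz⟩ := h1.exists_right_inv
    exact IsUnit.of_mul_eq_one (y * z) (by rw [← mul_assoc, hz])
  let sB : ((i : Fin (Finset.univ.sup d + 1)) → Matrix (Fib d i) (Fib d i) K) →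
      ((i : Fin (Finset.univ.sup d + 1)) → Matrix (Fib d i) (Fib d i) K) := fun b i => cji q (b i)
  have hfcomm : ∀ x, f (sA x) = sB (f x) := by
    intro x
    funext i
    ext l k
    show (Xi * cji q (x : Matrix Idx Idx K) * Xd) ⟨l.1, ⟨0, hd l.1⟩⟩ ⟨k.1, ⟨0, hd k.1⟩⟩ =
      (x : Matrix Idx Idx K) ⟨k.1, ⟨0, hd k.1⟩⟩ ⟨l.1, ⟨0, hd l.1⟩⟩ ^ q
    rw [hXi, hXd, block_entry]
    exact corner_adjoint hK X hXu hXJ (l.2.trans k.2.symm) _ (block_commute d x.2 k.1 l.1) (hd l.1) (hd k.1)
  -- transfer of the centralizer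
  have hu'u : IsUnit u' := IsUnit.of_mul_eq_one (cjT q u') (mul_eq_one_comm.1 hu'1)
  set v : ↥(GU n K q) := ⟨hu'u.unit, (mem_GU_iff_cjT hK).2 hu'1⟩ with hv
  have hvu : IsConj v u := by
    refine hconj _ _ ?_
    obtain ⟨c, hc⟩ := hu
    refine isConj_iff.2 ⟨c * W⁻¹, ?_⟩
    rw [mul_inv_eq_iff_eq_mul]
    refine Units.ext ?_
    show (c : Matrix (Fin n) (Fin n) K) * Z' * (Z * φ M * Z') =
      ((u : GL (Fin n) K) : Matrix (Fin n) (Fin n) K) * ((c : Matrix (Fin n) (Fin n) K) * Z')
    calc _ = (c : Matrix (Fin n) (Fin n) K) * (Z' * Z) * φ M * Z' := by simp only [mul_assoc]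
      _ = _ := by rw [hZ'Z, mul_one, ← mul_assoc _ (c : Matrix (Fin n) (Fin n) K)]; exact congrArg (· * Z') hc.eq
  have hC : Nat.card ↥(Subgroup.centralizer ({u} : Set ↥(GU n K q))) =
      Nat.card {g : GL (Fin n) K // Commute (g : Matrix (Fin n) (Fin n) K) u' ∧
        cjT q (g : Matrix (Fin n) (Fin n) K) * (g : Matrix (Fin n) (Fin n) K) = 1} := by
    obtain ⟨g, hg⟩ := isConj_iff.1 hvu
    refine Eq.trans (Nat.card_congr (Equiv.subtypeEquiv (MulAut.conj g).symm.toEquiv fun x => ?_)) ?_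
      (b := Nat.card {x : ↥(GU n K q) // Commute x v})
    · show x ∈ Subgroup.centralizer ({u} : Set ↥(GU n K q)) ↔ Commute ((MulAut.conj g).symm x) v
      rw [Subgroup.mem_centralizer_singleton_iff, ← hg]
      show x * (g * v * g⁻¹) = g * v * g⁻¹ * x ↔ g⁻¹ * x * g * v = v * (g⁻¹ * x * g)
      constructor
      · intro h
        calc g⁻¹ * x * g * v = g⁻¹ * (x * (g * v * g⁻¹)) * g := by group
          _ = g⁻¹ * (g * v * g⁻¹ * x) * g := by rw [h]
          _ = _ := by group
      · intro h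
        calc x * (g * v * g⁻¹) = g * (g⁻¹ * x * g * v) * g⁻¹ := by group
          _ = g * (v * (g⁻¹ * x * g)) * g⁻¹ := by rw [h]
          _ = _ := by group
    refine Nat.card_congr
      { toFun := fun x => ⟨(x.1 : GL (Fin n) K),
          congrArg (fun z : ↥(GU n K q) => ((z : GL (Fin n) K) : Matrix (Fin n) (Fin n) K)) x.2.eq,
          (mem_GU_iff_cjT hK).1 x.1.2⟩
        invFun := fun g => ⟨⟨g.1, (mem_GU_iff_cjT hK).2 g.2.2⟩, Subtype.ext (Units.ext g.2.1.eq)⟩
        left_inv := fun _ => rfl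
        right_inv := fun _ => rfl }
  have hunit : ∀ Y : commutant (F := K) d, IsUnit Y ↔ IsUnit (E (Y : Matrix Idx Idx K)) := by
    intro Y
    refine ⟨fun h => (h.map (commutant (F := K) d).val).map E, fun h => ?_⟩
    obtain ⟨w, hw⟩ := h
    obtain ⟨T, hT⟩ := hEsurj ((w⁻¹ : GL (Fin n) K) : Matrix (Fin n) (Fin n) K)
    have hTc : T ∈ commutant d := by
      rw [hcomm, hT]
      exact Commute.units_inv_left (by rw [hw]; exact (hcomm _).1 Y.2)
    exact IsUnit.of_mul_eq_one ⟨T, hTc⟩ (Subtype.ext (hEinj (by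
      show E ((Y : Matrix Idx Idx K) * T) = E 1
      rw [map_mul, map_one, hT, ← hw, Units.mul_inv])))
  have hHU : Nat.card {h : Matrix (Fin n) (Fin n) K // Commute h u' ∧ cjT q h = h ∧ IsUnit h} =
      Nat.card {Y : commutant (F := K) d // sA Y = Y ∧ IsUnit Y} := by
    refine (Nat.card_congr (Equiv.ofBijective
      (fun Y => ⟨E (Y.1 : Matrix Idx Idx K), (hcomm _).1 Y.1.2,
        by rw [← hEs]; exact congrArg E (congrArg Subtype.val Y.2.1), (hunit _).1 Y.2.2⟩) ⟨?_, ?_⟩)).symm
    · intro Y Y' h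
      exact Subtype.ext (Subtype.ext (hEinj (congrArg Subtype.val h)))
    · rintro ⟨h, h1, h2, h3⟩
      obtain ⟨Y, rfl⟩ := hEsurj h
      exact ⟨⟨⟨Y, (hcomm Y).2 h1⟩, Subtype.ext (hEinj (by
        show E (s Y) = E Y
        rw [hEs, h2])), (hunit _).2 h3⟩, rfl⟩
  have hGL : Nat.card {g : GL (Fin n) K // Commute (g : Matrix (Fin n) (Fin n) K) u'} =
      Nat.card (commutant (F := K) d)ˣ := by
    refine (Nat.card_congr (Equiv.ofBijective
      (fun Y => ⟨Units.map (E.comp (commutant (F := K) d).val.toRingHom).toMonoidHom Y,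
        (hcomm _).1 Y.1.2⟩) ⟨?_, ?_⟩)).symm
    · intro Y Y' h
      exact Units.ext (Subtype.ext (hEinj (congrArg (fun z => (z.1 : Matrix (Fin n) (Fin n) K)) h)))
    · rintro ⟨g, hg⟩
      obtain ⟨Y, hY⟩ := hEsurj (g : Matrix (Fin n) (Fin n) K)
      have hYm : Y ∈ commutant d := (hcomm Y).2 (hY ▸ hg)
      obtain ⟨w, hw⟩ := (hunit ⟨Y, hYm⟩).2 (hY ▸ g.isUnit)
      exact ⟨w, Subtype.ext (Units.ext (by
        show E ((w : commutant (F := K) d) : Matrix Idx Idx K) = _
        rw [hw, hY]))⟩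
  -- the equations
  have q1 := card_isometry_mul hK u' hu'1
  rw [← hC, hHU, hGL] at q1
  have q2 := card_fix_units_mul hK f hfsurj hfsmul hloc sA sB hs_add hs_smul hs_inv hfcomm
  have q3 := card_fix_sq hK sA hs_add hs_smul hs_inv
  have q4 := card_fix_sq hK sB (fun b b' => funext fun i => cji_add hK _ _)
    (fun c b => funext fun i => cji_smul c _) (fun b => funext fun i => cji_cji hK _)
  have q5 := card_units_mul (F := K) d hd
  have q6 := card_fix_units_pi (K := K) hK (fun i : Fin (Finset.univ.sup d + 1) => Fib d i)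
  have hfib : ∀ i : Fin (Finset.univ.sup d + 1), Fintype.card (Fib d i) =
      (Finset.univ.filter (fun k : Fin t => d k = i)).card := fun i => Fintype.card_subtype _
  rw [Finset.prod_congr rfl (fun i _ => congrArg (fun a => Nat.card ↥(GU a K q)) (hfib i)),
    ← Finset.prod_range (fun i => Nat.card ↥(GU (Finset.univ.filter (fun k : Fin t => d k = i)).card K q))] at q6
  set C := Nat.card ↥(Subgroup.centralizer ({u} : Set ↥(GU n K q)))
  set HA := Nat.card {Y : commutant (F := K) d // sA Y = Y ∧ IsUnit Y}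
  set FA := Nat.card {Y : commutant (F := K) d // sA Y = Y}
  set FB := Nat.card {b // sB b = b}
  set HB := Nat.card {b // sB b = b ∧ IsUnit b}
  set P := ∏ i ∈ Finset.range (Finset.univ.sup d + 1),
    Nat.card ↥(GU (Finset.univ.filter (fun k : Fin t => d k = i)).card K q)
  have hBpos : 0 < Nat.card ((i : Fin (Finset.univ.sup d + 1)) → Matrix (Fib d i) (Fib d i) K) :=
    Nat.card_pos
  have hApos : 0 < Nat.card (commutant (F := K) d) := Nat.card_pos
  rw [← q3, ← q4, ← q1, ← q6] at q5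
  have hFA : 0 < FA := Nat.pos_of_ne_zero fun h => by rw [h, zero_pow two_ne_zero] at q3; exact hApos.ne q3
  have hHB : 0 < HB := by
    haveI : Nonempty {b // sB b = b ∧ IsUnit b} :=
      ⟨⟨1, funext fun i => cji_one hK, isUnit_one⟩⟩
    exact Nat.card_pos
  have key : C * FB = P * FA := by
    refine Nat.eq_of_mul_eq_mul_right (Nat.mul_pos hFA hHB) ?_
    calc C * FB * (FA * HB) = C * (HA * FB) * FB := by rw [q2]; ring
      _ = C * HA * FB ^ 2 := by ring
      _ = HB * P * FA ^ 2 := q5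
      _ = P * FA * (FA * HB) := by ring
  -- the sizes
  set a := fun i => (Finset.univ.filter (fun k : Fin t => d k = i)).card
  set γ := 2 * (∑ i ∈ Finset.range (Finset.univ.sup d + 1),
          ∑ j ∈ Finset.range (Finset.univ.sup d + 1),
            if i < j then i * a i * a j else 0) +
        ∑ i ∈ Finset.range (Finset.univ.sup d + 1), (i - 1) * a i ^ 2
  set S := ∑ i ∈ Finset.range (Finset.univ.sup d + 1), a i ^ 2
  have hFAv : FA = q ^ (γ + S) := by
    refine Nat.pow_left_injective two_ne_zero ?_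
    show FA ^ 2 = (q ^ (γ + S)) ^ 2
    rw [q3, card_commutant, sum_min_eq d hd, hK, ← pow_mul, ← pow_mul, mul_comm]
  have hFBv : FB = q ^ S := by
    refine Nat.pow_left_injective two_ne_zero ?_
    show FB ^ 2 = (q ^ S) ^ 2
    rw [q4, Nat.card_pi, ← pow_mul, show S = ∑ i : Fin (Finset.univ.sup d + 1), a i ^ 2 from
      Finset.sum_range (fun i => a i ^ 2), Finset.sum_mul, ← Finset.prod_pow_eq_pow_sum]
    refine Finset.prod_congr rfl fun i _ => ?_
    simp only [Matrix, Nat.card_eq_fintype_card, Fintype.card_fun, hfib, hK]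
    rw [← pow_mul, ← pow_mul]
    congr 1
    ring
  rw [hFAv, hFBv, pow_add] at key
  have hqS : 0 < q ^ S := pow_pos (by have := two_le_q hK; omega) _
  refine Nat.eq_of_mul_eq_mul_right hqS ?_
  rw [key]
  ring

end CfsgLib.Jordan.UnitaryCentralizer
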